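import Cfsg.Agent.H450.Bs.GenSU
import Cfsg.Agent.H847.Bs.Stmts

/-!
# BS32 in the final form (helper450, S5733)
-/

set_option autoImplicit false

namespace Cfsg.Agent.H450.Bs

theorem s32 : Cfsg.Agent.H847.Bs.S32 := fun _ _ _ _ _ _ _ _ _ _ _ _ hΦ hH irr hd h4 hon => gen_su' hΦ hH irr hd h4 hon

end Cfsg.Agent.H450.Bs
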